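import Mathlib
import Cfsg.Agent.Lib.Helper41.CS3.GoodDefs

/-!
# CS3 (S4284), part GOOD: package `[SPLIT]`

`g = g1 * g2` with `g1` a `p`-element and `g2` a `p'`-element, both powers of `g`.
-/

set_option autoImplicit false

namespace Cfsg.Agent.Lib.Helper92.CS3

open Cfsg.Agent.Lib.Helper41.CS3

universe u

/-- The `p`-part / `p'`-part decomposition of an element of finite order, with explicit
exponents. -/
theorem split_pow {G : Type u} [Group G] (p : ℕ) (hp : p.Prime) (g : G) (hg : 0 < orderOf g) :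
    ∃ k1 k2 a b : ℕ, g = g ^ k1 * g ^ k2 ∧ orderOf g = p ^ a * b ∧ ¬ p ∣ b ∧
      (g ^ k1) ^ (p ^ a) = 1 ∧ (g ^ k2) ^ b = 1 := by
  obtain ⟨a, b, hb, hN⟩ := Nat.exists_eq_pow_mul_and_not_dvd (Nat.pos_iff_ne_zero.mp hg) p
    hp.ne_one
  have hco : (p ^ a).Coprime b :=
    Nat.Coprime.pow_left a ((Nat.Prime.coprime_iff_not_dvd hp).mpr hb)
  obtain ⟨k1, hk1a, hk1b⟩ := Nat.chineseRemainder hco 1 0
  obtain ⟨k2, hk2a, hk2b⟩ := Nat.chineseRemainder hco 0 1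
  refine ⟨k1, k2, a, b, ?_, hN, hb, ?_, ?_⟩
  · rw [← pow_add]
    have h1 : k1 + k2 ≡ 1 [MOD orderOf g] := by
      rw [hN]
      apply (Nat.modEq_and_modEq_iff_modEq_mul hco).mp
      exact ⟨by simpa using hk1a.add hk2a, by simpa using hk1b.add hk2b⟩
    have h3 := (pow_eq_pow_iff_modEq (x := g)).mpr h1
    rw [h3, pow_one]
  · rw [← pow_mul]
    apply (orderOf_dvd_iff_pow_eq_one).mp
    rw [hN, mul_comm k1]
    apply Nat.mul_dvd_mul_left
    exact (Nat.modEq_zero_iff_dvd).mp hk1b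
  · rw [← pow_mul]
    apply (orderOf_dvd_iff_pow_eq_one).mp
    rw [hN]
    apply Nat.mul_dvd_mul_right
    exact (Nat.modEq_zero_iff_dvd).mp hk2a

/-- **[SPLIT]** -/
theorem pkgSplit : PkgSplit.{u} := by
  intro G _ _ p hp g
  obtain ⟨k1, k2, a, b, h1, hN, hb, h2, h3⟩ := split_pow p hp g (orderOf_pos g)
  refine ⟨g ^ k1, g ^ k2, h1, ?_, ?_, ⟨k1, rfl⟩, ⟨k2, rfl⟩⟩
  · have hd : orderOf (g ^ k1) ∣ p ^ a := orderOf_dvd_of_pow_eq_one h2
    obtain ⟨j, _, hj⟩ := (Nat.dvd_prime_pow hp).mp hd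
    exact ⟨j, hj⟩
  · have hd : orderOf (g ^ k2) ∣ b := orderOf_dvd_of_pow_eq_one h3
    have hbp : b.Coprime p := (Nat.Prime.coprime_iff_not_dvd hp).mpr hb |>.symm
    exact Nat.Coprime.coprime_dvd_left hd hbp

end Cfsg.Agent.Lib.Helper92.CS3
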