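import Mathlib
import Cfsg.Agent.Lib.Helper41.CS3.GoodDefs
import Cfsg.Agent.Lib.Helper92.CS3.Split

/-!
# CS3 (S4284), part GOOD: package `[PRIM]`

Either some power of `x` is a non-central `r`-element with `r ≠ t`, or `x` is a `t`-element
times a central element.
-/

set_option autoImplicit false

namespace Cfsg.Agent.Lib.Helper92.CS3

open Cfsg.Agent.Lib.Helper41.CS3

universe u

/-- If all primary powers of `x` for primes `≠ t` are central, every power of `x` of order
prime to `t` is central. -/
theorem central_of_primary_central {G : Type u} [Group G] [Finite G] (t : ℕ) (x : G)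
    (H : ∀ (r : ℕ) (u : G), r.Prime → r ≠ t → Prim r u → (∃ k : ℕ, u = x ^ k) →
      u ∈ Subgroup.center G) :
    ∀ (N : ℕ) (w : G), orderOf w ≤ N → (orderOf w).Coprime t → (∃ k : ℕ, w = x ^ k) →
      w ∈ Subgroup.center G := by
  intro N
  induction N with
  | zero =>
    intro w hw _ _
    have := orderOf_pos w
    omega
  | succ N ih =>
    intro w hw hco hpow
    by_cases h1 : orderOf w = 1
    · rw [orderOf_eq_one_iff] at h1
      rw [h1]
      exact Subgroup.one_mem _
    · obtain ⟨r, hr, hrd⟩ : ∃ r : ℕ, r.Prime ∧ r ∣ orderOf w :=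
        ⟨_, Nat.minFac_prime h1, Nat.minFac_dvd _⟩
      have hrt : r ≠ t := by
        intro h
        rw [h] at hrd hr
        have h3 : t ∣ Nat.gcd (orderOf w) t := Nat.dvd_gcd hrd dvd_rfl
        rw [hco] at h3
        exact hr.one_lt.ne' (Nat.dvd_one.mp h3)
      obtain ⟨k1, k2, a, b, hsplit, hN, hb, hp1, hp2⟩ :=
        split_pow r hr w (orderOf_pos w)
      obtain ⟨k, hk⟩ := hpow
      have hc1 : w ^ k1 ∈ Subgroup.center G := by
        apply H r (w ^ k1) hr hrt
        · have hd : orderOf (w ^ k1) ∣ r ^ a := orderOf_dvd_of_pow_eq_one hp1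
          obtain ⟨j, _, hj⟩ := (Nat.dvd_prime_pow hr).mp hd
          exact ⟨j, hj⟩
        · exact ⟨k * k1, by rw [hk, pow_mul]⟩
      have hc2 : w ^ k2 ∈ Subgroup.center G := by
        apply ih (w ^ k2)
        · have hd : orderOf (w ^ k2) ∣ b := orderOf_dvd_of_pow_eq_one hp2
          have hb0 : 0 < b := by
            rcases Nat.eq_zero_or_pos b with h | h
            · rw [h, mul_zero] at hN
              have := orderOf_pos w
              omega
            · exact h
          have ha : a ≠ 0 := by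
            intro ha
            rw [ha, pow_zero, one_mul] at hN
            rw [hN] at hrd
            exact hb hrd
          have h2 : 2 ≤ r ^ a := by
            calc 2 ≤ r := hr.two_le
              _ = r ^ 1 := (pow_one _).symm
              _ ≤ r ^ a := Nat.pow_le_pow_right hr.pos (Nat.one_le_iff_ne_zero.mpr ha)
          have h3 : orderOf (w ^ k2) ≤ b := Nat.le_of_dvd hb0 hd
          have h4 : 2 * b ≤ orderOf w := by
            rw [hN]
            exact Nat.mul_le_mul_right b h2
          omega
        · exact Nat.Coprime.coprime_dvd_left (orderOf_pow_dvd k2) hco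
        · exact ⟨k * k2, by rw [hk, pow_mul]⟩
      have h5 := Subgroup.mul_mem _ hc1 hc2
      rw [← hsplit] at h5
      exact h5

/-- **[PRIM]** -/
theorem pkgPrim : PkgPrim.{u} := by
  intro G _ _ t ht x
  by_cases h : ∃ (r : ℕ) (u : G), r.Prime ∧ r ≠ t ∧ Prim r u ∧ u ∉ Subgroup.center G ∧
      ∃ k : ℕ, u = x ^ k
  · exact Or.inl h
  · right
    have H : ∀ (r : ℕ) (u : G), r.Prime → r ≠ t → Prim r u → (∃ k : ℕ, u = x ^ k) →
        u ∈ Subgroup.center G := by
      intro r u hr hrt hu hk
      by_contra hc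
      exact h ⟨r, u, hr, hrt, hu, hc, hk⟩
    obtain ⟨k1, k2, a, b, hsplit, hN, hb, hp1, hp2⟩ := split_pow t ht x (orderOf_pos x)
    refine ⟨x ^ k1, x ^ k2, hsplit, ?_, ?_⟩
    · have hd : orderOf (x ^ k1) ∣ t ^ a := orderOf_dvd_of_pow_eq_one hp1
      obtain ⟨j, _, hj⟩ := (Nat.dvd_prime_pow ht).mp hd
      exact ⟨j, hj⟩
    · apply central_of_primary_central t x H (orderOf (x ^ k2)) (x ^ k2) le_rfl
      · have hd : orderOf (x ^ k2) ∣ b := orderOf_dvd_of_pow_eq_one hp2
        have hbt : b.Coprime t := ((Nat.Prime.coprime_iff_not_dvd ht).mpr hb).symm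
        exact Nat.Coprime.coprime_dvd_left hd hbt
      · exact ⟨k2, rfl⟩

end Cfsg.Agent.Lib.Helper92.CS3
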